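import Cfsg.Agent.H0.Pc
import Cfsg.Agent.H0.MA7.D
set_option maxRecDepth 100000
set_option Elab.async false
set_option linter.unusedSectionVars false
namespace H0.CA7
open H0 BN 
noncomputable def n17 : Net := (Net.cons (nat_lit 4) (nat_lit 0x6) (Net.cons (nat_lit 2) (nat_lit 0x30) (Net.cons (nat_lit 1) (nat_lit 0x44) (Net.cons (nat_lit 2) (nat_lit 0x20) (Net.cons (nat_lit 4) (nat_lit 0x4) Net.nil)))))
noncomputable def n18 : Net := (Net.cons (nat_lit 2) (nat_lit 0x2) (Net.cons (nat_lit 1) (nat_lit 0x14) (Net.cons (nat_lit 2) (nat_lit 0x2) Net.nil)))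
noncomputable def n19 : Net := (Net.cons (nat_lit 4) (nat_lit 0x2) (Net.cons (nat_lit 2) (nat_lit 0x2) (Net.cons (nat_lit 1) (nat_lit 0x14) (Net.cons (nat_lit 2) (nat_lit 0x2) (Net.cons (nat_lit 4) (nat_lit 0x2) Net.nil)))))
noncomputable def n20 : Net := (Net.cons (nat_lit 4) (nat_lit 0x4) (Net.cons (nat_lit 2) (nat_lit 0x31) (Net.cons (nat_lit 1) (nat_lit 0x44) (Net.cons (nat_lit 2) (nat_lit 0x20) (Net.cons (nat_lit 4) (nat_lit 0x4) Net.nil)))))
noncomputable def n21 : Net := (Net.cons (nat_lit 4) (nat_lit 0x1) (Net.cons (nat_lit 2) (nat_lit 0x11) (Net.cons (nat_lit 1) (nat_lit 0x15) Net.nil)))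
noncomputable def nl2 : List Net := [n17, n18, n19, n20, n21]
theorem nl2_ok : allL (Net.ok (nat_lit 8)) nl2 = true := by decide +kernel
noncomputable def nl : List Net := [H0.MA7.n0, H0.MA7.n1, H0.MA7.n2, H0.MA7.n3, H0.MA7.n4, H0.MA7.n5, H0.MA7.n6, H0.MA7.n7, H0.MA7.n8, H0.MA7.n9, H0.MA7.n10, H0.MA7.n11, H0.MA7.n12, H0.MA7.n13, H0.MA7.n14, H0.MA7.n15, H0.MA7.n16, n17, n18, n19, n20, n21]
theorem nl_ok : allL (Net.ok (nat_lit 8)) nl = true := allL_append H0.MA7.nl_ok nl2_ok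
noncomputable def R : Rep := mkRep (nat_lit 3) (nat_lit 8) nl (by decide +kernel) nl_ok
def defs : List (List ℕ) := [[6, 9, 9], [4, 4, 8, 9, 9, 14], [4, 6, 8, 9, 9, 11, 12, 14, 14], [0, 4, 6, 8, 9, 9, 11, 12, 14, 14], [2, 0, 0, 6, 11]]
def ach : List Model.Lev := [(1, [[17], [19]], 4), (2, [[17, 18]], 2)]
def aW : List (List (List ℕ)) := [[[19], [18, 19], [19]], [[], [19]], [[]]]
def aWs : List (List ℕ) := [[], [19], [18], [18, 19], [17, 18], [17, 18, 19]]
def aU : List (List ℕ × ℕ) := [([], 1), ([], 0), ([20], 0), ([17, 20], 0), ([21], 0), ([17, 21], 0)]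
def aRs : List (List ℕ) := [[19]]
theorem c0 : Model.fixP R [1] [[17, 18]] = true := by decide +kernel
theorem c1 : Model.growP R [[17, 18]] [0] 2 2 = true := by decide +kernel
theorem c2 : Model.fixP R [] [[17], [19]] = true := by decide +kernel
theorem c3 : Model.growP R [[17], [19]] [0, 1] 1 4 = true := by decide +kernel
theorem c4 : pairsB R [4, 3, 2, 1, 0] (((pcE 2 [17, 18, 19] aW).drop 0).take 6) = true := by decide +kernel
theorem c5 : needB R [0, 1, 2, 3, 4] 2 (2 ^ 1) [17, 18, 19] aWs [] = true := by decide +kernel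
theorem c6 : pairsB R [4, 3, 2, 1, 0] (((clsE aWs aU aRs).drop 0).take 6) = true := by decide +kernel
theorem c7 : defsChk R defs 17 = true := by decide +kernel
end H0.CA7
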