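import Cfsg.Agent.H0.CA7.D
set_option maxRecDepth 100000
set_option Elab.async false
set_option linter.unusedSectionVars false
namespace H0.CA7
open H0 BN 
theorem defs_ok : DefsOK R.p defs 17 := defsOK_of_chk c7
universe u
variable {G : Type u} [Group G] [Finite G] (m0 : Model G) (h0 : m0.R = H0.MA7.R)
noncomputable def m : Model G := m0.ext (lg := nat_lit 3) (N := nat_lit 8) (l := H0.MA7.nl) h0 nl nl_ok 17 rfl defs defs_ok (by decide +kernel)
theorem mR : (m m0 h0).R = R := rfl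
variable (hb : m0.pst [4, 3, 2, 1, 0] = ⊥) (hc : Nat.card G = 2520)
include h0 hb hc
theorem base : (m m0 h0).pst [4, 3, 2, 1, 0] = ⊥ := hb
omit hb hc in
theorem ach_ok : (m m0 h0).ChainOK ach [] := ((m m0 h0).chain_cons [0, 1] (Model.via _ (mR m0 h0) (fun R => Model.fixP R [] [[17], [19]]) c2) (Model.via _ (mR m0 h0) (fun R => Model.growP R [[17], [19]] [0, 1] 1 4) c3) ((m m0 h0).chain_cons [0] (Model.via _ (mR m0 h0) (fun R => Model.fixP R [1] [[17, 18]]) c0) (Model.via _ (mR m0 h0) (fun R => Model.growP R [[17, 18]] [0] 2 2) c1) ((m m0 h0).chain_nil _)))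
theorem aE : ∀ e ∈ pcE 2 [17, 18, 19] aW, ev (m m0 h0).g e.1 = ev (m m0 h0).g e.2 := (all_take_done (all_take_step (all_take_zero _ (pcE 2 [17, 18, 19] aW)) ((m m0 h0).pairs_of (base m0 h0 hb hc) (Model.via _ (mR m0 h0) (fun R => pairsB R [4, 3, 2, 1, 0] (((pcE 2 [17, 18, 19] aW).drop 0).take 6)) c4))) (by decide +kernel))
omit hb hc in
theorem alow : 2 ^ [17, 18, 19].length ≤ Nat.card (gl (m m0 h0).g [17, 18, 19]) :=
  (by decide +kernel : _ ≤ Model.cprod ach).trans ((m m0 h0).chain_card (ach_ok m0 h0) (gen_le fun w hw => mem_gl _ (List.all_eq_true.1 (by decide +kernel : (Model.cgens ach).all (·.all [17, 18, 19].contains) = true) w hw)))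
theorem acls : ∀ x : G, x ^ 2 ^ 1 = 1 → x ≠ 1 → ∃ r ∈ aRs, IsConj (ev (m m0 h0).g r) x :=
  cls (by decide) (aE m0 h0 hb hc) (alow m0 h0) hc ((m m0 h0).need_of (Model.via _ (mR m0 h0) (fun R => needB R [0, 1, 2, 3, 4] 2 (2 ^ 1) [17, 18, 19] aWs []) c5)) (all_take_done (all_take_step (all_take_zero _ (clsE aWs aU aRs)) ((m m0 h0).pairs_of (base m0 h0 hb hc) (Model.via _ (mR m0 h0) (fun R => pairsB R [4, 3, 2, 1, 0] (((clsE aWs aU aRs).drop 0).take 6)) c6))) (by decide +kernel)) (by decide +kernel)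
theorem aone : ∀ x y : G, orderOf x = 2 → orderOf y = 2 → IsConj x y := fun _ _ =>
  one_cls (a := ev (m m0 h0).g [19]) (by decide) fun x a b => by simpa [aRs] using acls m0 h0 hb hc x a b
end H0.CA7
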